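import Mathlib
import Cfsg.Agent.Lib.Helper8.PG.Defs
import Cfsg.Agent.Lib.Helper14.Forms
import Cfsg.Agent.Lib.Helper40.PSpRS
import Cfsg.Agent.Lib.Helper61.OCls.Dual

/-!
# PG project: package [OTOSP]
-/

set_option autoImplicit false

namespace Cfsg.Agent.Lib.Helper8.PG

open Matrix Polynomial Cfsg.Agent.Lib.Helper40.DualPoly Cfsg.Agent.Lib.Helper40.SpExist
  Cfsg.Agent.Lib.Helper40.PSpRS Cfsg.Agent.Lib.Helper40 Cfsg.Agent.Lib.Helper14

universe u

theorem pkgOtoSp : PkgOtoSp.{u} := by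
  intro hOrd F _ _ hodd p _ _ n N hNodd hNp hO
  classical
  obtain ⟨g, hg, hgpow⟩ := hO
  have hNF : (N : F) ≠ 0 := natCast_ne_zero_of_coprime p N hNp
  have h2 : (2 : F) ≠ 0 := by
    intro h
    have h3 : (2 : F) = ((2 : ℕ) : F) := by norm_num
    rw [h3, CharP.cast_eq_zero_iff F p] at h
    have hpp : p.Prime := Fact.out
    have hp2 : p = 2 := (Nat.prime_dvd_prime_iff_eq hpp Nat.prime_two).mp h
    obtain ⟨f, -, hf⟩ := FiniteField.card F p
    rw [hf, hp2] at hodd
    rcases Nat.eq_zero_or_pos (f : ℕ) with h0 | h0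
    · exact absurd h0 f.2.ne'
    · exact (Nat.not_even_iff_odd.mpr hodd) (Nat.even_pow.mpr ⟨even_two, h0.ne'⟩)
  have hgN : g ^ N = 1 := (hgpow N).mpr dvd_rfl
  have hχd : dual (RingHom.id F) g.charpoly = g.charpoly :=
    Cfsg.Agent.Lib.Helper61.OCls.pkgDual (oddQF n F) (oddQF_nondegenerate n F h2) g
      (by intro v; rw [oddQF_coe]; exact hg v)
  have hχm : g.charpoly.Monic := Matrix.charpoly_monic g
  have hcard : Fintype.card (OI n) = 2 * n + 1 := by
    simp [OI]
    omega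
  have hdegχ : g.charpoly.natDegree = 2 * n + 1 := by
    rw [Matrix.charpoly_natDegree_eq_dim, hcard]
  -- determinant
  have hdet : g.det = (-1) ^ (2 * n + 1) * g.charpoly.coeff 0 := by
    rw [Matrix.det_eq_sign_charpoly_coeff, hcard]
  have hdetN : g.det ^ N = 1 := by rw [← Matrix.det_pow, hgN, Matrix.det_one]
  have hdet0 : g.det ≠ 0 := by
    intro h
    rw [h, zero_pow (Nat.pos_of_ne_zero (fun h0 => by simp [h0] at hNodd)).ne'] at hdetN
    exact zero_ne_one hdetN
  have hc0 : g.charpoly.coeff 0 ≠ 0 := by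
    intro h
    rw [h, mul_zero] at hdet
    exact hdet0 hdet
  have hcsq : g.charpoly.coeff 0 * g.charpoly.coeff 0 = 1 := by
    have h3 : (dual (RingHom.id F) g.charpoly).coeff 0 = g.charpoly.coeff 0 := by rw [hχd]
    rw [coeff_dual (RingHom.id F) g.charpoly 0 (Nat.zero_le _), Nat.sub_zero] at h3
    have h4 : g.charpoly.coeff g.charpoly.natDegree = 1 := hχm
    rw [h4] at h3
    simp only [RingHom.id_apply, mul_one] at h3
    calc g.charpoly.coeff 0 * g.charpoly.coeff 0
        = g.charpoly.coeff 0 * (g.charpoly.coeff 0)⁻¹ := by rw [h3]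
      _ = 1 := mul_inv_cancel₀ hc0
  have hcm1 : g.charpoly.coeff 0 = -1 := by
    have h3 : (g.charpoly.coeff 0 - 1) * (g.charpoly.coeff 0 + 1) = 0 := by
      linear_combination hcsq
    rcases mul_eq_zero.mp h3 with h4 | h4
    · exfalso
      have h5 : g.charpoly.coeff 0 = 1 := by linear_combination h4
      rw [h5, mul_one, Odd.neg_one_pow ⟨n, rfl⟩] at hdet
      rw [hdet, hNodd.neg_one_pow] at hdetN
      apply h2
      linear_combination -hdetN
    · linear_combination h4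
  have hχ1 : g.charpoly.eval 1 = 0 := by
    have hcoeff : ∀ i ∈ Finset.range (2 * n + 1 + 1),
        g.charpoly.coeff i = -g.charpoly.coeff (2 * n + 1 - i) := by
      intro i hi
      rw [Finset.mem_range] at hi
      have h3 : (dual (RingHom.id F) g.charpoly).coeff i = g.charpoly.coeff i := by rw [hχd]
      rw [coeff_dual (RingHom.id F) g.charpoly i (by rw [hdegχ]; omega), hdegχ, hcm1] at h3
      simp only [RingHom.id_apply] at h3
      rw [← h3, inv_neg, inv_one, neg_one_mul]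
    have hsum : g.charpoly.eval 1 = ∑ i ∈ Finset.range (2 * n + 1 + 1), g.charpoly.coeff i := by
      rw [eval_eq_sum_range, hdegχ]
      apply Finset.sum_congr rfl
      intro i _
      rw [one_pow, mul_one]
    have hrefl : ∑ i ∈ Finset.range (2 * n + 1 + 1), g.charpoly.coeff (2 * n + 1 - i) =
        ∑ i ∈ Finset.range (2 * n + 1 + 1), g.charpoly.coeff i := by
      have h3 := Finset.sum_range_reflect (fun i => g.charpoly.coeff i) (2 * n + 1 + 1)
      simpa using h3
    have h4 : g.charpoly.eval 1 = -g.charpoly.eval 1 := by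
      conv_lhs => rw [hsum, Finset.sum_congr rfl hcoeff, Finset.sum_neg_distrib, hrefl, ← hsum]
    have h5 : (2 : F) * g.charpoly.eval 1 = 0 := by linear_combination h4
    rcases mul_eq_zero.mp h5 with h6 | h6
    · exact absurd h6 h2
    · exact h6
  obtain ⟨f₀, hf₀, hnd⟩ :=
    Polynomial.exists_eq_pow_rootMultiplicity_mul_and_not_dvd g.charpoly hχm.ne_zero (1 : F)
  obtain ⟨e, he⟩ : ∃ e : ℕ, e = g.charpoly.rootMultiplicity 1 := ⟨_, rfl⟩
  rw [← he] at hf₀
  have he1 : 1 ≤ e := by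
    rw [he]
    exact (Polynomial.rootMultiplicity_pos hχm.ne_zero).mpr hχ1
  have hpm : ((X - C (1 : F)) ^ e).Monic := (monic_X_sub_C 1).pow e
  have hf₀m : f₀.Monic := by
    rw [hf₀] at hχm
    exact hpm.of_mul_monic_left hχm
  have hf₀1 : f₀.eval 1 ≠ 0 := by
    intro h
    exact hnd (dvd_iff_isRoot.mpr h)
  have hf₀0 : f₀.coeff 0 ≠ 0 := by
    intro h
    have h3 : g.charpoly.coeff 0 = 0 := by
      rw [hf₀, mul_coeff_zero, h, mul_zero]
    exact hc0 h3
  have hf₀d : dual (RingHom.id F) f₀ = f₀ := by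
    have h3 := hχd
    rw [hf₀, dual_mul, dual_pow, dual_X_sub_one] at h3
    exact mul_left_cancel₀ hpm.ne_zero h3
  have hae : aeval g (X ^ N - 1 : F[X]) = 0 := by simp [hgN]
  have hf₀m1 : f₀.eval (-1) ≠ 0 := by
    intro h
    have hd1 : (X - C (-1 : F)) ∣ g.charpoly := by
      rw [hf₀]
      exact Dvd.dvd.mul_left (dvd_iff_isRoot.mpr h) _
    have hd2 := irr_dvd_of_aeval g _ hae (X - C (-1 : F)) (irreducible_X_sub_C (-1)) hd1
    have h3 := dvd_iff_isRoot.mp hd2
    rw [IsRoot, eval_sub, eval_pow, eval_X, eval_one, hNodd.neg_one_pow] at h3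
    apply h2
    linear_combination -h3
  have hdeg : f₀.natDegree ≤ 2 * n := by
    have h4 : g.charpoly.natDegree = e + f₀.natDegree := by
      rw [hf₀, hpm.natDegree_mul hf₀m, (monic_X_sub_C (1 : F)).natDegree_pow, natDegree_X_sub_C,
        mul_one]
    omega
  obtain ⟨S, e', hχS, N', hN'pos, hN'p, hSN⟩ :=
    exists_sp_of_poly p n f₀ hf₀m hf₀0 hf₀d hf₀1 hf₀m1 hdeg
  have hN'F : (N' : F) ≠ 0 := natCast_ne_zero_of_coprime p N' hN'p
  have hSN' : S.1 ^ N' = 1 := by
    rw [← SubmonoidClass.coe_pow, hSN]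
    rfl
  refine ⟨S, fun j => ?_⟩
  rw [← hgpow j, ← hOrd S.1 g N' N hN'F hNF hSN' hgN e' e f₀ hχS hf₀ j]
  constructor
  · intro h
    rw [← SubmonoidClass.coe_pow, h]
    rfl
  · intro h
    apply Subtype.ext
    rw [SubmonoidClass.coe_pow, h]
    rfl

end Cfsg.Agent.Lib.Helper8.PG
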