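import Mathlib
import Cfsg.Agent.Lib.Helper8.PG.Defs
import Cfsg.Agent.Lib.Helper40.PSpRS
import Cfsg.Agent.Lib.Helper79.OCls.InvForm

/-!
# PG project: package [SPTOBLK]
-/

set_option autoImplicit false

namespace Cfsg.Agent.Lib.Helper8.PG

open Matrix Polynomial Cfsg.Agent.Lib.Helper40.DualPoly Cfsg.Agent.Lib.Helper40.SpExist
  Cfsg.Agent.Lib.Helper40.PSpRS Cfsg.Agent.Lib.Helper40

universe u

theorem pkgSptoBlk : PkgSptoBlk.{u} := by
  intro hOrd F _ _ hodd p _ _ n N hNodd hNp hSp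
  classical
  obtain ⟨S, hS⟩ := hSp
  have hNF : (N : F) ≠ 0 := natCast_ne_zero_of_coprime p N hNp
  obtain ⟨M, hM⟩ : ∃ M : Matrix (Fin n ⊕ Fin n) (Fin n ⊕ Fin n) F, M = S.1 := ⟨_, rfl⟩
  have hMpow : ∀ j : ℕ, M ^ j = 1 ↔ N ∣ j := by
    intro j
    rw [← hS j, hM]
    constructor
    · intro h
      apply Subtype.ext
      rw [SubmonoidClass.coe_pow, h]
      rfl
    · intro h
      rw [← SubmonoidClass.coe_pow, h]
      rfl
  have hMN : M ^ N = 1 := (hMpow N).mpr dvd_rfl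
  have hχd : dual (RingHom.id F) M.charpoly = M.charpoly := by
    rw [hM]
    exact dual_charpoly_sp S
  have hχ0 : M.charpoly.coeff 0 = 1 := by
    rw [hM]
    exact coeff_zero_charpoly_sp S
  have hχm : M.charpoly.Monic := Matrix.charpoly_monic M
  obtain ⟨f₀, hf₀, hnd⟩ :=
    Polynomial.exists_eq_pow_rootMultiplicity_mul_and_not_dvd M.charpoly hχm.ne_zero (1 : F)
  obtain ⟨e, he⟩ : ∃ e : ℕ, e = M.charpoly.rootMultiplicity 1 := ⟨_, rfl⟩
  rw [← he] at hf₀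
  have hpm : ((X - C (1 : F)) ^ e).Monic := (monic_X_sub_C 1).pow e
  have hf₀m : f₀.Monic := by
    rw [hf₀] at hχm
    exact hpm.of_mul_monic_left hχm
  have hf₀1 : f₀.eval 1 ≠ 0 := by
    intro h
    exact hnd (dvd_iff_isRoot.mpr h)
  have hf₀0 : f₀.coeff 0 ≠ 0 := by
    intro h
    have h3 : M.charpoly.coeff 0 = 0 := by
      rw [hf₀, mul_coeff_zero, h, mul_zero]
    rw [hχ0] at h3
    exact one_ne_zero h3
  have hf₀d : dual (RingHom.id F) f₀ = f₀ := by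
    have h3 := hχd
    rw [hf₀, dual_mul, dual_pow, dual_X_sub_one] at h3
    exact mul_left_cancel₀ hpm.ne_zero h3
  have h2 : (2 : F) ≠ 0 := by
    intro h
    have h3 : (2 : F) = ((2 : ℕ) : F) := by norm_num
    rw [h3, CharP.cast_eq_zero_iff F p] at h
    have hpp : p.Prime := Fact.out
    have hp2 : p = 2 := (Nat.prime_dvd_prime_iff_eq hpp Nat.prime_two).mp h
    obtain ⟨f, -, hf⟩ := FiniteField.card F p
    rw [hf, hp2] at hodd
    rcases Nat.eq_zero_or_pos (f : ℕ) with h0 | h0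
    · exact absurd h0 f.2.ne'
    · exact (Nat.not_even_iff_odd.mpr hodd) (Nat.even_pow.mpr ⟨even_two, h0.ne'⟩)
  have hae : aeval M (X ^ N - 1 : F[X]) = 0 := by simp [hMN]
  have hf₀m1 : f₀.eval (-1) ≠ 0 := by
    intro h
    have hd1 : (X - C (-1 : F)) ∣ M.charpoly := by
      rw [hf₀]
      exact Dvd.dvd.mul_left (dvd_iff_isRoot.mpr h) _
    have hd2 := irr_dvd_of_aeval M _ hae (X - C (-1 : F)) (irreducible_X_sub_C (-1)) hd1
    have h3 := dvd_iff_isRoot.mp hd2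
    rw [IsRoot, eval_sub, eval_pow, eval_X, eval_one, hNodd.neg_one_pow] at h3
    apply h2
    linear_combination -h3
  obtain ⟨m₀, hdeg, S₀, hχ₀, N₀, hN₀pos, hN₀p, hS₀N⟩ :=
    sp_of_good (good_of_no_pm p f₀ hf₀m hf₀0 hf₀d hf₀1 hf₀m1)
  have hN₀F : (N₀ : F) ≠ 0 := natCast_ne_zero_of_coprime p N₀ hN₀p
  have hS₀N' : S₀.1 ^ N₀ = 1 := by
    rw [← SubmonoidClass.coe_pow, hS₀N]
    rfl
  have hord : ∀ j : ℕ, S₀.1 ^ j = 1 ↔ N ∣ j := by
    intro j
    rw [← hMpow j]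
    exact hOrd S₀.1 M N₀ N hN₀F hNF hS₀N' hMN 0 e f₀ (by rw [pow_zero, one_mul, hχ₀]) hf₀ j
  have hm₀ : m₀ ≤ n := by
    have h3 : M.charpoly.natDegree = 2 * n := by
      rw [Matrix.charpoly_natDegree_eq_dim, Fintype.card_sum, Fintype.card_fin]
      omega
    have h4 : M.charpoly.natDegree = e + f₀.natDegree := by
      rw [hf₀, hpm.natDegree_mul hf₀m, (monic_X_sub_C (1 : F)).natDegree_pow, natDegree_X_sub_C,
        mul_one]
    omega
  obtain ⟨Q, hQ, hQinv⟩ := Cfsg.Agent.Lib.Helper79.OCls.pkgInvForm S₀.1 N hNodd hNF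
    ((hord N).mpr dvd_rfl) (dual_charpoly_sp S₀) (by rw [hχ₀]; exact hf₀1)
  refine ⟨2 * m₀, by omega, Fin m₀ ⊕ Fin m₀, inferInstance, inferInstance, Q, S₀.1, ?_, hQ,
    hQinv, hord⟩
  rw [Fintype.card_sum, Fintype.card_fin]
  omega

end Cfsg.Agent.Lib.Helper8.PG
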